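import Mathlib
import Cfsg.Prelude.Def_LocalEven
import Cfsg.Agent.PLocal.ThompsonJ

/-!
# E-groups inside an ambient group
-/

set_option autoImplicit false

namespace Cfsg.Agent.H210.TwoFac

open Cfsg Subgroup
open Cfsg.Agent.PLocal.ThompsonJ

universe u v

section defs

variable {G : Type u} [Group G]

/-- the property in the definition of E-groups, for the action of `T` on `V` -/
def EProp (T V : Subgroup G) : Prop :=
  ∀ R ≤ T, ⁅R, R⁆ ≤ centralizer (V : Set G) → (∀ r ∈ R, r ^ 2 ∈ centralizer (V : Set G)) →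
    ¬ R ≤ centralizer (V : Set G) →
      (Nat.card V) ^ 2 * (Nat.card ↥(R ⊓ centralizer (V : Set G))) ^ 3 >
          (Nat.card R) ^ 3 * (Nat.card ↥(V ⊓ centralizer (R : Set G))) ^ 2 ∧
        Nat.card ↥⁅V, R⁆ * Nat.card ↥(R ⊓ centralizer (V : Set G)) > Nat.card R

/-- only the first inequality -/
def EPropA (T V : Subgroup G) : Prop :=
  ∀ R ≤ T, ⁅R, R⁆ ≤ centralizer (V : Set G) → (∀ r ∈ R, r ^ 2 ∈ centralizer (V : Set G)) →
    ¬ R ≤ centralizer (V : Set G) →
      (Nat.card R) ^ 3 * (Nat.card ↥(V ⊓ centralizer (R : Set G))) ^ 2 <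
      (Nat.card V) ^ 2 * (Nat.card ↥(R ⊓ centralizer (V : Set G))) ^ 3

theorem EProp.mono {T T' V : Subgroup G} (h : EProp T V) (hT : T' ≤ T) : EProp T' V :=
  fun R hR => h R (hR.trans hT)

theorem EProp.a {T V : Subgroup G} (h : EProp T V) : EPropA T V :=
  fun R hR h1 h2 h3 => (h R hR h1 h2 h3).1

/-- E-groups, seen in the ambient group -/
def EGrp (T : Subgroup G) : Prop :=
  ∀ V ≤ T, (∀ t ∈ T, ∀ v ∈ V, t * v * t⁻¹ ∈ V) → IsElementaryAbelian 2 V → EProp T V →
    T ≤ centralizer (V : Set G)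

end defs

section transfer

variable {T : Type v} {G : Type u} [Group T] [Group G] {f : T →* G}

theorem mem_cen_map (hf : Function.Injective f) {V : Subgroup T} {t : T} :
    f t ∈ centralizer (V.map f : Set G) ↔ t ∈ centralizer (V : Set T) := by
  rw [mem_centralizer_iff, mem_centralizer_iff]
  constructor
  · intro h v hv
    apply hf
    rw [map_mul, map_mul]
    exact h _ ⟨v, hv, rfl⟩
  · rintro h _ ⟨v, hv, rfl⟩
    rw [← map_mul, ← map_mul, h v hv]

theorem map_inf_cen (hf : Function.Injective f) (R V : Subgroup T) :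
    R.map f ⊓ centralizer (V.map f : Set G) = (R ⊓ centralizer (V : Set T)).map f := by
  ext x
  constructor
  · rintro ⟨⟨r, hr, rfl⟩, h⟩
    exact ⟨r, ⟨hr, (mem_cen_map hf).1 h⟩, rfl⟩
  · rintro ⟨r, ⟨hr, h⟩, rfl⟩
    exact ⟨⟨r, hr, rfl⟩, (mem_cen_map hf).2 h⟩

theorem map_le_cen_iff (hf : Function.Injective f) {R V : Subgroup T} :
    R.map f ≤ centralizer (V.map f : Set G) ↔ R ≤ centralizer (V : Set T) := by
  constructor
  · intro h r hr
    exact (mem_cen_map hf).1 (h ⟨r, hr, rfl⟩)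
  · rintro h _ ⟨r, hr, rfl⟩
    exact (mem_cen_map hf).2 (h hr)

theorem eProp_map_iff (hf : Function.Injective f) (V : Subgroup T) :
    EProp f.range (V.map f) ↔ EProp ⊤ V := by
  have key : ∀ R : Subgroup T, (⁅R.map f, R.map f⁆ ≤ centralizer (V.map f : Set G) ↔
        ⁅R, R⁆ ≤ centralizer (V : Set T)) ∧
      ((∀ r ∈ R.map f, r ^ 2 ∈ centralizer (V.map f : Set G)) ↔
        ∀ r ∈ R, r ^ 2 ∈ centralizer (V : Set T)) ∧
      (R.map f ≤ centralizer (V.map f : Set G) ↔ R ≤ centralizer (V : Set T)) ∧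
      Nat.card (R.map f) = Nat.card R ∧ Nat.card (V.map f) = Nat.card V ∧
      Nat.card ↥(R.map f ⊓ centralizer (V.map f : Set G)) =
        Nat.card ↥(R ⊓ centralizer (V : Set T)) ∧
      Nat.card ↥(V.map f ⊓ centralizer (R.map f : Set G)) =
        Nat.card ↥(V ⊓ centralizer (R : Set T)) ∧
      Nat.card ↥⁅V.map f, R.map f⁆ = Nat.card ↥⁅V, R⁆ := by
    intro R
    refine ⟨?_, ?_, map_le_cen_iff hf, card_map_of_injective hf, card_map_of_injective hf, ?_,
      ?_, ?_⟩
    · rw [← map_commutator]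
      exact map_le_cen_iff hf
    · constructor
      · intro h r hr
        rw [← mem_cen_map hf, map_pow]
        exact h _ ⟨r, hr, rfl⟩
      · rintro h _ ⟨r, hr, rfl⟩
        rw [← map_pow, mem_cen_map hf]
        exact h r hr
    · rw [map_inf_cen hf, card_map_of_injective hf]
    · rw [map_inf_cen hf, card_map_of_injective hf]
    · rw [← map_commutator, card_map_of_injective hf]
  constructor
  · intro h R _ h1 h2 h3
    obtain ⟨k1, k2, k3, k4, k5, k6, k7, k8⟩ := key R
    have h4 := h (R.map f) (by rintro _ ⟨r, _, rfl⟩; exact ⟨r, rfl⟩) (k1.2 h1) (k2.2 h2)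
      (fun h5 => h3 (k3.1 h5))
    rwa [k4, k5, k6, k7, k8] at h4
  · intro h R hR h1 h2 h3
    have hR' : (R.comap f).map f = R := map_comap_eq_self hR
    obtain ⟨k1, k2, k3, k4, k5, k6, k7, k8⟩ := key (R.comap f)
    rw [hR'] at k1 k2 k3 k4 k6 k7 k8
    rw [k4, k5, k6, k7, k8]
    exact h (R.comap f) le_top (k1.1 h1) (k2.1 h2) (fun h5 => h3 (k3.2 h5))

theorem isEGroup_iff_range (hf : Function.Injective f) : IsEGroup T ↔ EGrp f.range := by
  constructor
  · intro h V hV hn he hp
    have hV' : (V.comap f).map f = V := map_comap_eq_self hV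
    have h1 : (V.comap f).Normal := by
      refine ⟨fun v hv t => ?_⟩
      show f (t * v * t⁻¹) ∈ V
      rw [map_mul, map_mul, map_inv]
      exact hn _ ⟨t, rfl⟩ _ hv
    have h2 : IsElementaryAbelian 2 (V.comap f) := isElementaryAbelian_comap he hf
    rw [← hV', eProp_map_iff hf] at hp
    have h3 := h _ h1 h2 (fun R r1 r2 r3 => hp R le_top r1 r2 r3)
    rw [← hV']
    rintro _ ⟨t, rfl⟩
    rw [mem_cen_map hf, mem_centralizer_iff]
    intro v hv
    exact (mem_center_iff.1 (h3 hv) t).symm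
  · intro h V hV he hp
    have h1 := h (V.map f) (by rintro _ ⟨r, _, rfl⟩; exact ⟨r, rfl⟩) (by
      rintro _ ⟨t, rfl⟩ _ ⟨v, hv, rfl⟩
      exact ⟨t * v * t⁻¹, hV.conj_mem v hv t, by simp⟩) (isElementaryAbelian_map he f) (by
      rw [eProp_map_iff hf]
      exact fun R _ r1 r2 r3 => hp R r1 r2 r3)
    intro v hv
    rw [mem_center_iff]
    intro t
    have h2 := (mem_cen_map hf).1 (h1 ⟨t, rfl⟩)
    exact (mem_centralizer_iff.1 h2 v hv).symm

end transfer

section jh

variable {G : Type u} [Group G]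

/-- `Ĵ(S)` in the ambient group -/
def jh (S : Subgroup G) : Subgroup G :=
  sSup {U | U ≤ S ∧ EGrp U ∧ thompsonSubgroupOf 2 S ≤ U}

theorem jh_eq (S : Subgroup G) : (jHat ↥S).map S.subtype = jh S := by
  apply le_antisymm
  · rw [map_le_iff_le_comap]
    refine sSup_le ?_
    rintro U ⟨hU, hJ⟩
    rw [← map_le_iff_le_comap]
    refine le_sSup ⟨map_subtype_le U, ?_, ?_⟩
    · have h1 := (isEGroup_iff_range (f := S.subtype.comp U.subtype)
        (S.subtype_injective.comp U.subtype_injective)).1 hU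
      rwa [MonoidHom.range_comp, range_subtype] at h1
    · exact map_mono hJ
  · refine sSup_le ?_
    rintro U ⟨hUS, hU, hJ⟩
    have h1 : (U.subgroupOf S).map S.subtype = U := by
      rw [subgroupOf_map_subtype, inf_eq_left.2 hUS]
    rw [← h1]
    apply map_mono
    refine le_sSup ⟨?_, ?_⟩
    · rw [isEGroup_iff_range (f := S.subtype.comp (U.subgroupOf S).subtype)
        (S.subtype_injective.comp (U.subgroupOf S).subtype_injective), MonoidHom.range_comp,
        range_subtype, h1]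
      exact hU
    · rw [← map_le_map_iff_of_injective S.subtype_injective, h1]
      exact hJ

theorem le_jh {S U : Subgroup G} (h1 : U ≤ S) (h2 : EGrp U) (h3 : thompsonSubgroupOf 2 S ≤ U) :
    U ≤ jh S := le_sSup ⟨h1, h2, h3⟩

theorem jh_le (S : Subgroup G) : jh S ≤ S := sSup_le fun _ h => h.1

end jh

end Cfsg.Agent.H210.TwoFac
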