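import Mathlib
import Cfsg.Agent.H210.TwoFac.EGroup
import Cfsg.Agent.PLocal.ElemAbSup
import Cfsg.Agent.PLocal.ThompsonFrattini

/-!
# The Thompson subgroup, unoffended normal subgroups, the Frattini argument
-/

set_option autoImplicit false

namespace Cfsg.Agent.H210.TwoFac

open Cfsg Subgroup
open Cfsg.Agent.PLocal.ThompsonJ Cfsg.Agent.PLocal.ElemAbSup

universe u

variable {G : Type u} [Group G]

/-- `A` is an elementary abelian subgroup of `S` of largest order. -/
structure IsEA (S A : Subgroup G) : Prop where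
  le : A ≤ S
  ea : IsElementaryAbelian 2 A
  max : ∀ B ≤ S, IsElementaryAbelian 2 B → Nat.card B ≤ Nat.card A

theorem isEA_map {S : Subgroup G} {A : Subgroup S} :
    IsEA S (A.map S.subtype) ↔ A ∈ maxElementaryAbelianSubgroups 2 S := by
  constructor
  · intro h
    refine ⟨(isElementaryAbelian_map_iff S.subtype_injective).1 h.ea, fun B hB => ?_⟩
    have h1 := h.max (B.map S.subtype) (map_subtype_le B) (isElementaryAbelian_map hB _)
    rwa [card_map_of_injective S.subtype_injective, card_map_of_injective S.subtype_injective]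
      at h1
  · rintro ⟨h1, h2⟩
    refine ⟨map_subtype_le A, isElementaryAbelian_map h1 _, fun B hB hB' => ?_⟩
    have h3 := h2 (B.subgroupOf S) (isElementaryAbelian_subgroupOf hB' S)
    have h4 : (B.subgroupOf S).map S.subtype = B := by
      rw [subgroupOf_map_subtype, inf_eq_left.2 hB]
    rw [card_map_of_injective S.subtype_injective, ← h4,
      card_map_of_injective S.subtype_injective]
    exact h3

theorem jj_eq (S : Subgroup G) : thompsonSubgroupOf 2 S = sSup {A | IsEA S A} := by
  apply le_antisymm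
  · rw [thompsonSubgroupOf_def, map_le_iff_le_comap]
    refine thompsonSubgroup_le fun A hA => ?_
    rw [← map_le_iff_le_comap]
    exact le_sSup (isEA_map.2 hA)
  · refine sSup_le fun A hA => ?_
    have h1 : (A.subgroupOf S).map S.subtype = A := by
      rw [subgroupOf_map_subtype, inf_eq_left.2 hA.le]
    rw [← h1]
    apply map_mono
    apply le_thompsonSubgroup
    rw [← isEA_map, h1]
    exact hA

theorem IsEA.le_jj {S A : Subgroup G} (h : IsEA S A) : A ≤ thompsonSubgroupOf 2 S := by
  rw [jj_eq]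
  exact le_sSup h

theorem jj_le {S K : Subgroup G} (h : ∀ A, IsEA S A → A ≤ K) : thompsonSubgroupOf 2 S ≤ K := by
  rw [jj_eq]
  exact sSup_le h

theorem exists_isEA [Finite G] (S : Subgroup G) : ∃ A, IsEA S A := by
  obtain ⟨A, hA⟩ := exists_maxElementaryAbelian 2 S
  exact ⟨_, isEA_map.2 hA⟩

theorem jj_eq_of_le [Finite G] {S T : Subgroup G} (h1 : T ≤ S)
    (h2 : thompsonSubgroupOf 2 S ≤ T) : thompsonSubgroupOf 2 T = thompsonSubgroupOf 2 S := by
  obtain ⟨A₀, hA₀⟩ := exists_isEA S
  rw [jj_eq, jj_eq]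
  congr 1
  ext A
  constructor
  · intro hA
    refine ⟨hA.le.trans h1, hA.ea, fun B hB hB' => ?_⟩
    exact (hA₀.max B hB hB').trans (hA.max A₀ (hA₀.le_jj.trans h2) hA₀.ea)
  · intro hA
    exact ⟨hA.le_jj.trans h2, hA.ea, fun B hB hB' => hA.max B (hB.trans h1) hB'⟩

/-- If `V` is an elementary abelian subgroup of `S` and no elementary abelian `R ≤ S` offends on
`V`, then `V` lies in each elementary abelian subgroup of `S` of largest order. -/
theorem IsEA.le_cen [Finite G] {S V A : Subgroup G} (hA : IsEA S A) (hVS : V ≤ S)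
    (hV : IsElementaryAbelian 2 V)
    (h : ∀ R ≤ S, IsElementaryAbelian 2 R → ¬ R ≤ centralizer (V : Set G) →
      Nat.card R * Nat.card ↥(V ⊓ centralizer (R : Set G)) <
        Nat.card V * Nat.card ↥(R ⊓ centralizer (V : Set G))) :
    A ≤ centralizer (V : Set G) := by
  by_contra hcon
  have h1 := h A hA.le hA.ea hcon
  have hc : V ≤ centralizer ((A ⊓ centralizer (V : Set G) : Subgroup G) : Set G) := by
    intro v hv
    rw [mem_centralizer_iff]
    intro a ha
    exact (mem_centralizer_iff.1 ha.2 v hv).symm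
  have h2 := hA.max ((A ⊓ centralizer (V : Set G)) ⊔ V) (sup_le (inf_le_left.trans hA.le) hVS)
    (isElementaryAbelian_sup (isElementaryAbelian_mono hA.ea inf_le_left) hV hc)
  have h3 := card_sup_mul_card_inf hc
  have h4 : Nat.card ↥(A ⊓ centralizer (V : Set G) ⊓ V) ≤
      Nat.card ↥(V ⊓ centralizer (A : Set G)) := by
    apply Subgroup.card_le_of_le
    rintro x ⟨⟨hx, _⟩, hxV⟩
    refine ⟨hxV, mem_centralizer_iff.2 ?_⟩
    intro a ha
    exact isElementaryAbelian_comm hA.ea ha hx
  have h5 : Nat.card ↥(A ⊓ centralizer (V : Set G)) * Nat.card V ≤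
      Nat.card A * Nat.card ↥(V ⊓ centralizer (A : Set G)) := by
    rw [← h3]
    exact Nat.mul_le_mul h2 h4
  rw [mul_comm] at h5
  omega

theorem IsEA.le_of_cen [Finite G] {S V A : Subgroup G} (hA : IsEA S A) (hVS : V ≤ S)
    (hV : IsElementaryAbelian 2 V) (h : A ≤ centralizer (V : Set G)) : V ≤ A := by
  have hc : V ≤ centralizer (A : Set G) := by
    intro v hv
    rw [mem_centralizer_iff]
    intro a ha
    exact (mem_centralizer_iff.1 (h ha) v hv).symm
  have h1 := hA.max (A ⊔ V) (sup_le hA.le hVS) (isElementaryAbelian_sup hA.ea hV hc)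
  have h2 : A = A ⊔ V := Subgroup.eq_of_le_of_card_ge le_sup_left h1
  rw [h2]
  exact le_sup_right

/-- conclusion for the Thompson subgroup -/
theorem jj_le_cen [Finite G] {S V : Subgroup G} (hVS : V ≤ S)
    (hV : IsElementaryAbelian 2 V)
    (h : ∀ R ≤ S, IsElementaryAbelian 2 R → ¬ R ≤ centralizer (V : Set G) →
      Nat.card R * Nat.card ↥(V ⊓ centralizer (R : Set G)) <
        Nat.card V * Nat.card ↥(R ⊓ centralizer (V : Set G))) :
    thompsonSubgroupOf 2 S ≤ centralizer (V : Set G) ∧ V ≤ thompsonSubgroupOf 2 S := by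
  refine ⟨jj_le fun A hA => hA.le_cen hVS hV h, ?_⟩
  obtain ⟨A, hA⟩ := exists_isEA S
  exact (hA.le_of_cen hVS hV (hA.le_cen hVS hV h)).trans hA.le_jj

theorem le_jj_of_le_cen [Finite G] {S V : Subgroup G} (hVS : V ≤ S)
    (hV : IsElementaryAbelian 2 V)
    (h : thompsonSubgroupOf 2 S ≤ centralizer (V : Set G)) : V ≤ thompsonSubgroupOf 2 S := by
  obtain ⟨A, hA⟩ := exists_isEA S
  exact (hA.le_of_cen hVS hV (hA.le_jj.trans h)).trans hA.le_jj

/-- The Frattini argument, elementwise. -/
theorem frattini [Finite G] (S : Sylow 2 G) (K X : Subgroup G) [K.Normal]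
    (hX : normalizer (((S : Subgroup G) ⊓ K : Subgroup G) : Set G) ≤ normalizer (X : Set G))
    (C : Subgroup G) (hC : K ≤ C) (g : G) :
    ∃ c ∈ C, ∃ n ∈ normalizer (X : Set G), g = c * n := by
  have : Fact (Nat.Prime 2) := ⟨Nat.prime_two⟩
  obtain ⟨P, hP⟩ := Cfsg.Agent.PLocal.ThompsonFrattini.exists_sylow_subgroupOf S K
  have h1 := P.normalizer_sup_eq_top
  have h2 : (P : Subgroup K).map K.subtype = (S : Subgroup G) ⊓ K := by
    rw [hP, subgroupOf_map_subtype]
  rw [h2] at h1
  have h3 : g ∈ K ⊔ normalizer (((S : Subgroup G) ⊓ K : Subgroup G) : Set G) := by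
    rw [sup_comm, h1]
    exact mem_top g
  rw [← SetLike.mem_coe, normal_mul, Set.mem_mul] at h3
  obtain ⟨c, hc, n, hn, rfl⟩ := h3
  exact ⟨c, hC hc, n, hX hn, rfl⟩

end Cfsg.Agent.H210.TwoFac
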