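import Mathlib
import Cfsg.Agent.H210.TwoFac.Thompson

/-!
# `Ĵ(S)` and the chain `T ≥ C_T(V) ≥ ...`
-/

set_option autoImplicit false

namespace Cfsg.Agent.H210.TwoFac

open Cfsg Subgroup
open Cfsg.Agent.PLocal.ThompsonJ Cfsg.Agent.PLocal.ElemAbSup

universe u

variable {G : Type u} [Group G]

theorem ea_comm {R V : Subgroup G} (hR : IsElementaryAbelian 2 R) :
    ⁅R, R⁆ ≤ centralizer (V : Set G) ∧ ∀ r ∈ R, r ^ 2 ∈ centralizer (V : Set G) := by
  constructor
  · rw [commutator_le]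
    intro a ha b hb
    rw [commutatorElement_def, isElementaryAbelian_comm hR ha hb, mul_inv_cancel_right,
      mul_inv_cancel]
    exact one_mem _
  · intro r hr
    rw [isElementaryAbelian_pow hR hr]
    exact one_mem _

/-- the inequality with exponent `3/2` implies the one with exponent `1` -/
theorem lt_of_sq_lt {r v c d : ℕ} (hd : d ≤ r) (h : r ^ 3 * c ^ 2 < v ^ 2 * d ^ 3) :
    r * c < v * d := by
  by_contra hcon
  push Not at hcon
  have h1 : (v * d) ^ 2 * d ≤ (r * c) ^ 2 * r :=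
    Nat.mul_le_mul (Nat.pow_le_pow_left hcon 2) hd
  have h2 : (v * d) ^ 2 * d = v ^ 2 * d ^ 3 := by ring
  have h3 : (r * c) ^ 2 * r = r ^ 3 * c ^ 2 := by ring
  omega

theorem EPropA.offends [Finite G] {S V : Subgroup G} (h : EPropA S V) :
    ∀ R ≤ S, IsElementaryAbelian 2 R → ¬ R ≤ centralizer (V : Set G) →
      Nat.card R * Nat.card ↥(V ⊓ centralizer (R : Set G)) <
        Nat.card V * Nat.card ↥(R ⊓ centralizer (V : Set G)) := by
  intro R hR hR2 hne
  exact lt_of_sq_lt (Subgroup.card_le_of_le inf_le_left)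
    (h R hR (ea_comm hR2).1 (ea_comm hR2).2 hne)

/-- an elementary abelian subgroup `V ≤ S` with property E lies in the centre of `J(S)` -/
theorem EPropA.jj [Finite G] {S V : Subgroup G} (h : EPropA S V) (hVS : V ≤ S)
    (hV : IsElementaryAbelian 2 V) :
    thompsonSubgroupOf 2 S ≤ centralizer (V : Set G) ∧ V ≤ thompsonSubgroupOf 2 S :=
  jj_le_cen hVS hV h.offends

/-- `Ĵ(S) = Ĵ(T)` for `T = C_S(V)` -/
theorem jh_inf_cen [Finite G] {S V : Subgroup G} (h : EProp S V) (hVS : V ≤ S)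
    (hn : ∀ t ∈ S, ∀ v ∈ V, t * v * t⁻¹ ∈ V) (hV : IsElementaryAbelian 2 V) :
    thompsonSubgroupOf 2 S ≤ S ⊓ centralizer (V : Set G) ∧
      jh (S ⊓ centralizer (V : Set G)) = jh S := by
  obtain ⟨h1, h2⟩ := h.a.jj hVS hV
  have h3 : thompsonSubgroupOf 2 S ≤ S ⊓ centralizer (V : Set G) :=
    le_inf (thompsonSubgroupOf_le_self 2 S) h1
  refine ⟨h3, ?_⟩
  unfold jh
  rw [jj_eq_of_le inf_le_left h3]
  congr 1
  ext U
  constructor
  · rintro ⟨k1, k2, k3⟩
    exact ⟨k1.trans inf_le_left, k2, k3⟩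
  · rintro ⟨k1, k2, k3⟩
    refine ⟨le_inf k1 ?_, k2, k3⟩
    exact k2 V (h2.trans k3) (fun t ht => hn t (k1 ht)) hV (h.mono k1)

/-- the centre of `Ĵ(S)`, and its elements of order two -/
def zz (H : Subgroup G) : Subgroup G := omegaOne 2 (H ⊓ centralizer (H : Set G))

theorem mem_zz {H : Subgroup G} {x : G} :
    x ∈ zz H ↔ x ∈ H ∧ x ∈ centralizer (H : Set G) ∧ x ^ 2 = 1 := by
  let Y : Subgroup G :=
    { carrier := {x | x ∈ H ∧ x ∈ centralizer (H : Set G) ∧ x ^ 2 = 1}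
      one_mem' := ⟨one_mem _, one_mem _, one_pow _⟩
      mul_mem' := by
        rintro a b ⟨ha, ha', ha2⟩ ⟨hb, hb', hb2⟩
        refine ⟨mul_mem ha hb, mul_mem ha' hb', ?_⟩
        have h1 : Commute a b := mem_centralizer_iff.1 hb' a ha
        rw [h1.mul_pow, ha2, hb2, one_mul]
      inv_mem' := by
        rintro a ⟨ha, ha', ha2⟩
        refine ⟨inv_mem ha, inv_mem ha', ?_⟩
        rw [inv_pow, ha2, inv_one] }
  constructor
  · intro h
    have h1 : zz H ≤ Y := (closure_le _).2 fun y hy => ⟨hy.1.1, hy.1.2, hy.2⟩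
    exact h1 h
  · rintro ⟨h1, h2, h3⟩
    exact subset_closure ⟨⟨h1, h2⟩, h3⟩

theorem zz_le (H : Subgroup G) : zz H ≤ H := fun _ h => (mem_zz.1 h).1

theorem le_cen_zz (H : Subgroup G) : H ≤ centralizer (zz H : Set G) := by
  intro x hx
  rw [mem_centralizer_iff]
  intro z hz
  exact (mem_centralizer_iff.1 (mem_zz.1 hz).2.1 x hx).symm

theorem zz_ea (H : Subgroup G) : IsElementaryAbelian 2 (zz H) := by
  rw [isElementaryAbelian_iff]
  refine ⟨fun a ha b hb => ?_, fun a ha => (mem_zz.1 ha).2.2⟩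
  exact mem_centralizer_iff.1 (mem_zz.1 hb).2.1 a (mem_zz.1 ha).1

theorem le_zz {H V : Subgroup G} (hVH : V ≤ H) (hV : IsElementaryAbelian 2 V)
    (h : H ≤ centralizer (V : Set G)) : V ≤ zz H := by
  intro v hv
  refine mem_zz.2 ⟨hVH hv, ?_, isElementaryAbelian_pow hV hv⟩
  rw [mem_centralizer_iff]
  intro x hx
  exact (mem_centralizer_iff.1 (h hx) v hv).symm

/-- The product step. -/
theorem epropA_step [Finite G] {S V Z : Subgroup G} (hVZ : V ≤ Z)
    (hZ : IsElementaryAbelian 2 Z) (h : EPropA S V)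
    (h' : EPropA (S ⊓ centralizer (V : Set G)) Z) : EPropA S Z := by
  intro R hR hR1 hR2 hR3
  have hcz : centralizer (Z : Set G) ≤ centralizer (V : Set G) := centralizer_le hVZ
  set R₁ := R ⊓ centralizer (V : Set G) with hR₁
  have hR₁R : R₁ ≤ R := inf_le_left
  have hd : R₁ ⊓ centralizer (Z : Set G) = R ⊓ centralizer (Z : Set G) := by
    rw [hR₁, inf_assoc, inf_eq_right.2 hcz]
  set a := Nat.card R with ha
  set a₁ := Nat.card R₁ with ha₁
  set d := Nat.card ↥(R ⊓ centralizer (Z : Set G)) with hd'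
  set z := Nat.card Z with hz
  set z₁ := Nat.card ↥(Z ⊓ centralizer (R₁ : Set G)) with hz₁
  set z₂ := Nat.card ↥(Z ⊓ centralizer (R : Set G)) with hz₂
  set v := Nat.card V with hv
  set v₂ := Nat.card ↥(V ⊓ centralizer (R : Set G)) with hv₂
  have pz : 0 < z := Nat.card_pos
  have pa₁ : 0 < a₁ := Nat.card_pos
  have pd : 0 < d := Nat.card_pos
  have pv : 0 < v := Nat.card_pos
  have pv₂ : 0 < v₂ := Nat.card_pos
  have pz₁ : 0 < z₁ := Nat.card_pos
  have pa : 0 < a := Nat.card_pos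
  have hA : ¬ R₁ ≤ centralizer (Z : Set G) → a₁ ^ 3 * z₁ ^ 2 < z ^ 2 * d ^ 3 := by
    intro hne
    have h1 := h' R₁ (le_inf (hR₁R.trans hR) inf_le_right)
      ((commutator_mono hR₁R hR₁R).trans hR1) (fun r hr => hR2 r (hR₁R hr)) hne
    rwa [hd] at h1
  have hA' : R₁ ≤ centralizer (Z : Set G) → a₁ = d ∧ z₁ = z := by
    intro hle
    constructor
    · rw [ha₁, hd', ← hd, inf_eq_left.2 hle]
    · have h1 : Z ⊓ centralizer (R₁ : Set G) = Z := inf_eq_left.2 (by
        intro y hy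
        rw [mem_centralizer_iff]
        intro r hr
        exact (mem_centralizer_iff.1 (hle hr) y hy).symm)
      rw [hz₁, hz, h1]
  have hB : ¬ R ≤ centralizer (V : Set G) → a ^ 3 * v₂ ^ 2 < v ^ 2 * a₁ ^ 3 := by
    intro hne
    exact h R hR (hR1.trans hcz) (fun r hr => hcz (hR2 r hr)) hne
  have hB' : R ≤ centralizer (V : Set G) → a₁ = a ∧ v₂ = v := by
    intro hle
    constructor
    · rw [ha₁, hR₁, inf_eq_left.2 hle]
    · have h1 : V ⊓ centralizer (R : Set G) = V := inf_eq_left.2 (by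
        intro y hy
        rw [mem_centralizer_iff]
        intro r hr
        exact (mem_centralizer_iff.1 (hle hr) y hy).symm)
      rw [hv₂, hv, h1]
  have hC : z₂ * v ≤ z₁ * v₂ := by
    have hX : Z ⊓ centralizer (R : Set G) ≤ Z ⊓ centralizer (R₁ : Set G) :=
      inf_le_inf_left _ (centralizer_le hR₁R)
    have hVX : V ≤ Z ⊓ centralizer (R₁ : Set G) := by
      refine le_inf hVZ ?_
      intro y hy
      rw [mem_centralizer_iff]
      intro r hr
      exact (mem_centralizer_iff.1 hr.2 y hy).symm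
    have hc : V ≤ centralizer ((Z ⊓ centralizer (R : Set G) : Subgroup G) : Set G) := by
      intro y hy
      rw [mem_centralizer_iff]
      intro x hx
      exact isElementaryAbelian_comm hZ hx.1 (hVZ hy)
    have h1 := card_sup_mul_card_inf hc
    have h2 : Z ⊓ centralizer (R : Set G) ⊓ V = V ⊓ centralizer (R : Set G) := by
      rw [inf_comm, ← inf_assoc, inf_eq_left.2 hVZ]
    rw [h2] at h1
    have h3 : Nat.card ↥(Z ⊓ centralizer (R : Set G) ⊔ V) ≤ z₁ :=
      Subgroup.card_le_of_le (sup_le hX hVX)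
    calc z₂ * v = _ := h1.symm
      _ ≤ z₁ * v₂ := Nat.mul_le_mul_right _ h3
  have hC2 : (z₂ * v) ^ 2 ≤ (z₁ * v₂) ^ 2 := Nat.pow_le_pow_left hC 2
  -- the product of the inequalities
  have hAB : a₁ ^ 3 * z₁ ^ 2 * (a ^ 3 * v₂ ^ 2) < z ^ 2 * d ^ 3 * (v ^ 2 * a₁ ^ 3) := by
    by_cases h1 : R₁ ≤ centralizer (Z : Set G)
    · have h2 : ¬ R ≤ centralizer (V : Set G) := by
        intro h2
        apply hR3
        have : R₁ = R := inf_eq_left.2 h2
        rwa [this] at h1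
      obtain ⟨e1, e2⟩ := hA' h1
      have h3 := hB h2
      have h4 : a₁ ^ 3 * z₁ ^ 2 = z ^ 2 * d ^ 3 := by rw [e1, e2]; ring
      rw [h4]
      exact Nat.mul_lt_mul_of_pos_left h3 (by positivity)
    · have h3 := hA h1
      have h4 : a ^ 3 * v₂ ^ 2 ≤ v ^ 2 * a₁ ^ 3 := by
        by_cases h2 : R ≤ centralizer (V : Set G)
        · obtain ⟨e1, e2⟩ := hB' h2
          rw [e1, e2]
          exact (mul_comm _ _).le
        · exact (hB h2).le
      calc a₁ ^ 3 * z₁ ^ 2 * (a ^ 3 * v₂ ^ 2) < z ^ 2 * d ^ 3 * (a ^ 3 * v₂ ^ 2) :=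
            Nat.mul_lt_mul_of_pos_right h3 (by positivity)
        _ ≤ _ := Nat.mul_le_mul_left _ h4
  have h5 : a ^ 3 * (z₁ * v₂) ^ 2 < z ^ 2 * d ^ 3 * v ^ 2 := by
    have e1 : a₁ ^ 3 * z₁ ^ 2 * (a ^ 3 * v₂ ^ 2) = a₁ ^ 3 * (a ^ 3 * (z₁ * v₂) ^ 2) := by ring
    have e2 : z ^ 2 * d ^ 3 * (v ^ 2 * a₁ ^ 3) = a₁ ^ 3 * (z ^ 2 * d ^ 3 * v ^ 2) := by ring
    rw [e1, e2] at hAB
    exact lt_of_mul_lt_mul_left hAB (Nat.zero_le _)
  have h6 : v ^ 2 * (a ^ 3 * z₂ ^ 2) < v ^ 2 * (z ^ 2 * d ^ 3) := by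
    calc v ^ 2 * (a ^ 3 * z₂ ^ 2) = a ^ 3 * (z₂ * v) ^ 2 := by ring
      _ ≤ a ^ 3 * (z₁ * v₂) ^ 2 := Nat.mul_le_mul_left _ hC2
      _ < z ^ 2 * d ^ 3 * v ^ 2 := h5
      _ = v ^ 2 * (z ^ 2 * d ^ 3) := by ring
  exact lt_of_mul_lt_mul_left h6 (Nat.zero_le _)

/-- The chain. -/
theorem chain [Finite G] : ∀ (n : ℕ) (S : Subgroup G), Nat.card S = n →
    EGrp (jh S) ∧ thompsonSubgroupOf 2 S ≤ jh S ∧ EPropA S (zz (jh S)) := by
  intro n
  induction n using Nat.strong_induction_on with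
  | _ n ih =>
    intro S hn
    by_cases hE : EGrp S
    · have h1 : jh S = S := le_antisymm (jh_le S) (le_jh le_rfl hE (thompsonSubgroupOf_le_self 2 S))
      rw [h1]
      refine ⟨hE, thompsonSubgroupOf_le_self 2 S, ?_⟩
      intro R hR _ _ hR3
      exact absurd (hR.trans (le_cen_zz S)) hR3
    · unfold EGrp at hE
      push Not at hE
      obtain ⟨V, hVS, hVn, hV, hp, hne⟩ := hE
      obtain ⟨h1, h2⟩ := jh_inf_cen hp hVS hVn hV
      have hlt : S ⊓ centralizer (V : Set G) < S := by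
        refine lt_of_le_of_ne inf_le_left fun h => hne ?_
        exact inf_eq_left.1 h
      have hcard : Nat.card ↥(S ⊓ centralizer (V : Set G)) < n := by
        rw [← hn]
        rcases lt_or_eq_of_le (Subgroup.card_le_of_le hlt.le) with h | h
        · exact h
        · exact absurd (Subgroup.eq_of_le_of_card_ge hlt.le h.ge) hlt.ne
      obtain ⟨k1, k2, k3⟩ := ih _ hcard (S ⊓ centralizer (V : Set G)) rfl
      rw [h2] at k1 k2 k3
      rw [jj_eq_of_le inf_le_left h1] at k2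
      refine ⟨k1, k2, ?_⟩
      have h3 : V ≤ jh S := ((hp.a.jj hVS hV).2).trans k2
      have h4 : jh S ≤ centralizer (V : Set G) := by
        rw [← h2]
        exact (jh_le _).trans inf_le_right
      exact epropA_step (le_zz h3 hV h4) (zz_ea _) hp.a k3

end Cfsg.Agent.H210.TwoFac
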