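import Mathlib
import Cfsg.Prelude.Def_LocalEven
import Cfsg.Agent.PLocal.S4ConFinal
import Cfsg.Agent.PLocal.S4ConPside
import Cfsg.Agent.PLocal.S4FreeFlagG

/-!
# Stellmacher's functor: the largest good normal subgroup of a Sylow 2-subgroup is normal

For S2753 (Glauberman's 2-factorization), following a plan of helper223.
-/

set_option autoImplicit false

namespace Cfsg.Agent.H210.TwoFac

open Cfsg
open Cfsg.Agent.PLocal
open Cfsg.Agent.PLocal.S4ConGroup (Df GdAx le_Df Df_le good_Df)
open Cfsg.Agent.PLocal.S4ConInst (Gd)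
open Cfsg.Agent.PLocal.S4FreeSection (S4Free)

universe u

/-- The closure properties of good subgroups. -/
theorem ax : GdAx.{u} Gd.{u} :=
  S4ConInst.gdAx fun _ _ _ _ _ _ _ hexp hS3 T _ hU => S4FreeFlagG.good_iSup hexp hS3 T hU

/-- The functor. -/
abbrev dd {G : Type u} [Group G] (T : Subgroup G) : Subgroup G := Df Gd T

theorem s4Free_of_not_involves {G : Type u} [Group G]
    (h : ¬ Involves (Equiv.Perm (Fin 4)) G) : S4Free G := h

theorem dd_normal {G : Type u} [Group G] [Finite G] (h4 : S4Free G)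
    (hc : Subgroup.centralizer (pCore 2 G : Set G) ≤ pCore 2 G) (S : Sylow 2 G) :
    (dd (S : Subgroup G)).Normal :=
  S4ConGroup.normal_of_le ax h4 S (S4ConMin.main ax
    (fun P _ _ S _ hg hz => S4ConFinal.contra
      (fun _ _ _ _ _ _ h => S4ConPside.pside h) P S _ _ hg hz)
    (Nat.card G + 1) G (Nat.lt_succ_self _) h4 hc S)

end Cfsg.Agent.H210.TwoFac
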