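import Mathlib
import Cfsg.Agent.H210.TwoFac.Chain
import Cfsg.Agent.H210.TwoFac.Df

/-!
# The first inequality of property E implies that the module is good
-/

set_option autoImplicit false

namespace Cfsg.Agent.H210.TwoFac

open Cfsg Subgroup
open Cfsg.Agent.PLocal
open Cfsg.Agent.PLocal.ThompsonJ Cfsg.Agent.PLocal.ElemAbSup
open Cfsg.Agent.PLocal.S4FreeClosureBasic
open Cfsg.Agent.PLocal.S4FreeFlag (Good Flag cr cr_le rd)
open Cfsg.Agent.PLocal.S4ConInst (Gd)

universe u

variable {G : Type u} [Group G]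

theorem le_of_cube {r f z : ℕ} (h : r ^ 3 * f ^ 2 < z ^ 2) (h1 : 1 ≤ r) : r * f < z := by
  by_contra hcon
  push Not at hcon
  have h2 : z ^ 2 ≤ (r * f) ^ 2 := Nat.pow_le_pow_left hcon 2
  have h3 : (r * f) ^ 2 * 1 ≤ (r * f) ^ 2 * r := Nat.mul_le_mul_left _ h1
  have h4 : (r * f) ^ 2 * r = r ^ 3 * f ^ 2 := by ring
  omega

/-- A module on which `R` has large commutators: the flag is impossible. -/
theorem noflag_aux {S : Type*} [Group S] [Finite S] {V : Type*} [CommGroup V] [Finite V]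
    {φ : S →* MulAut V} (hexp : ∀ v : V, v * v = 1)
    (key : ∀ R : Subgroup S, (∀ a ∈ R, ∀ b ∈ R, ∀ v, φ a (φ b v) = φ b (φ a v)) →
      (∀ a ∈ R, ∀ v, φ a (φ a v) = v) → ¬ R ≤ cn φ ⊤ →
      ((cn φ ⊤).relIndex R) ^ 3 * (Nat.card (fx φ R)) ^ 2 < Nat.card V ^ 2)
    (B : Subgroup S) (E : Subgroup V) (hF : Flag φ B ⊤ E) : False := by
  classical
  set F := fx φ B with hFdef
  have hFE : F ≤ E := by
    have := hF.fx_le
    rwa [top_inf_eq] at this
  obtain ⟨u, -, huE⟩ := hF.exists_not_mem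
  -- the homomorphism `b ↦ [u, b]` modulo the fixed points
  have hmulc : ∀ a ∈ B, ∀ b ∈ B, (φ (a * b) u * u⁻¹) * ((φ a u * u⁻¹) * (φ b u * u⁻¹))⁻¹ ∈ F := by
    intro a ha b hb
    have h1 : φ (a * b) u * u⁻¹ = φ a (φ b u * u⁻¹) * (φ a u * u⁻¹) := by
      rw [map_mul, MulAut.mul_apply, map_mul, map_inv]
      group
    have h2 : φ a (φ b u * u⁻¹) * (φ b u * u⁻¹)⁻¹ ∈ F :=
      hF.comm' a ha _ (hF.comm b hb u (mem_top u))
    have h3 : (φ (a * b) u * u⁻¹) * ((φ a u * u⁻¹) * (φ b u * u⁻¹))⁻¹ =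
        φ a (φ b u * u⁻¹) * (φ b u * u⁻¹)⁻¹ := by
      rw [h1]
      generalize φ a (φ b u * u⁻¹) = x
      generalize φ b u * u⁻¹ = y
      generalize φ a u * u⁻¹ = w
      rw [mul_inv_rev, mul_assoc x w, ← mul_assoc w, mul_comm w, mul_inv_cancel_right]
    rw [h3]
    exact h2
  let f : B →* V ⧸ F :=
    { toFun := fun b => QuotientGroup.mk (φ b u * u⁻¹)
      map_one' := by
        rw [Subgroup.coe_one, map_one, MulAut.one_apply, mul_inv_cancel]
        rfl
      map_mul' := by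
        intro a b
        rw [← QuotientGroup.mk_mul, eq_comm, QuotientGroup.eq, mul_comm]
        exact hmulc a a.2 b b.2 }
  have hf : ∀ b : B, f b = QuotientGroup.mk (φ b u * u⁻¹) := fun _ => rfl
  have hker : ∀ b : B, f b = 1 ↔ (b : S) ∈ cn φ ⊤ := by
    intro b
    rw [hf, QuotientGroup.eq_one_iff]
    constructor
    · intro h
      exact hF.inj u (mem_top u) huE b b.2 h
    · intro h
      have h1 : φ (b : S) u = u := h u (mem_top u)
      rw [h1, mul_inv_cancel]
      exact one_mem _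
  have hquot : ∀ q : V ⧸ F, q * q = 1 := by
    intro q
    obtain ⟨v, rfl⟩ := QuotientGroup.mk_surjective q
    rw [← QuotientGroup.mk_mul, hexp]
    rfl
  have hB : ¬ B ≤ cn φ ⊤ := hF.not_le_cn
  have hk := key B (by
    intro a ha b hb v
    have h1 : f (⟨a, ha⟩⁻¹ * ⟨b, hb⟩⁻¹ * ⟨a, ha⟩ * ⟨b, hb⟩) = 1 := by
      rw [map_mul, map_mul, map_mul, map_inv, map_inv]
      generalize f ⟨a, ha⟩ = x
      generalize f ⟨b, hb⟩ = y
      rw [mul_comm x⁻¹, mul_assoc, mul_assoc, ← mul_assoc x⁻¹, inv_mul_cancel, one_mul,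
        inv_mul_cancel]
    have h2 := (hker _).1 h1
    have h3 : φ (a⁻¹ * b⁻¹ * a * b) v = v := h2 v (mem_top v)
    have h4 : φ (b * a) (φ (a⁻¹ * b⁻¹ * a * b) v) = φ (b * a) v := by rw [h3]
    rw [← MulAut.mul_apply, ← map_mul] at h4
    have h5 : b * a * (a⁻¹ * b⁻¹ * a * b) = a * b := by group
    rw [h5, map_mul, map_mul, MulAut.mul_apply, MulAut.mul_apply] at h4
    exact h4) (by
    intro a ha v
    have h1 : f (⟨a, ha⟩ * ⟨a, ha⟩) = 1 := by
      rw [map_mul]
      exact hquot _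
    have h2 := (hker _).1 h1
    have h3 : φ (a * a) v = v := h2 v (mem_top v)
    rwa [map_mul, MulAut.mul_apply] at h3) hB
  -- the order of `B / C_B(V)`
  have hrange : f.range = E.map (QuotientGroup.mk' F) := by
    apply le_antisymm
    · rintro _ ⟨b, rfl⟩
      exact ⟨_, hF.comm b b.2 u (mem_top u), rfl⟩
    · rintro _ ⟨e, he, rfl⟩
      obtain ⟨b, hb, hbe⟩ := hF.surj u (mem_top u) huE e he
      refine ⟨⟨b, hb⟩, ?_⟩
      rw [hf, QuotientGroup.mk'_apply, eq_comm, QuotientGroup.eq, mul_comm]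
      exact hbe
  have hcard : (cn φ ⊤).relIndex B = F.relIndex E := by
    have h1 : f.ker = (cn φ ⊤).subgroupOf B := by
      ext b
      rw [MonoidHom.mem_ker, hker, mem_subgroupOf]
    have h2 : (cn φ ⊤).relIndex B = Nat.card f.range := by
      rw [← Subgroup.index_ker, h1]
      rfl
    rw [h2, hrange]
    have h3 := Subgroup.relIndex_ker (f := QuotientGroup.mk' F) (K := E)
    rw [QuotientGroup.ker_mk'] at h3
    exact h3.symm
  -- `[E, B] ≠ 1`
  have hcr : cr φ B E ≠ ⊥ := by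
    intro h
    apply hB
    intro b hb
    apply hF.inj u (mem_top u) huE b hb
    intro b' hb'
    have h1 : φ b' (φ b u * u⁻¹) * (φ b u * u⁻¹)⁻¹ ∈ cr φ B E :=
      subset_closure ⟨b', hb', _, hF.comm b hb u (mem_top u), rfl⟩
    rw [h, mem_bot] at h1
    exact mul_inv_eq_one.1 h1
  -- a subgroup of index two
  obtain ⟨L, hL⟩ : ∃ L : Subgroup V, L.relIndex (cr φ B E) = 2 := by
    have h2 : IsPGroup 2 (cr φ B E) := by
      intro x
      exact ⟨1, by rw [pow_one, sq]; exact Subtype.ext (hexp x)⟩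
    have hnt : Nontrivial (cr φ B E) := (Subgroup.nontrivial_iff_ne_bot _).2 hcr
    have : Fact (Nat.Prime 2) := ⟨Nat.prime_two⟩
    obtain ⟨n, hn⟩ := h2.exists_card_eq
    have hn0 : n ≠ 0 := by
      rintro rfl
      have := Finite.one_lt_card (α := cr φ B E)
      rw [hn, pow_zero] at this
      omega
    obtain ⟨m, rfl⟩ := Nat.exists_eq_succ_of_ne_zero hn0
    obtain ⟨L₀, hL₀⟩ := Sylow.exists_subgroup_card_pow_prime (G := cr φ B E) 2 (n := m) (by
      rw [hn]
      exact pow_dvd_pow 2 (Nat.le_succ m))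
    refine ⟨L₀.map (cr φ B E).subtype, ?_⟩
    have h3 : (L₀.map (cr φ B E).subtype).subgroupOf (cr φ B E) = L₀ :=
      comap_map_eq_self_of_injective (cr φ B E).subtype_injective _
    show ((L₀.map (cr φ B E).subtype).subgroupOf (cr φ B E)).index = 2
    rw [h3]
    have h4 := L₀.index_mul_card
    rw [hn, hL₀, pow_succ'] at h4
    exact Nat.eq_of_mul_eq_mul_right (pow_pos two_pos m) h4
  have hidx := hF.index L hL
  have hle : (rd φ B E L).relIndex E ≤ F.relIndex E := by
    have h1 : F ≤ rd φ B E L := by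
      intro e he
      refine ⟨hFE he, fun b hb => ?_⟩
      rw [he b hb, mul_inv_cancel]
      exact one_mem _
    exact Subgroup.relIndex_le_of_le_left h1 Subgroup.index_ne_zero_of_finite
  -- orders
  have h1 : F.relIndex E * Nat.card F = Nat.card E := S4ConInst.relIndex_mul_card' hFE
  have h2 : E.relIndex ⊤ * Nat.card E = Nat.card V := by
    rw [Subgroup.relIndex_top_right]
    exact E.index_mul_card
  set d := F.relIndex E with hd
  set s := E.relIndex ⊤ with hs
  set c := Nat.card F with hc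
  rw [hcard, ← h2, ← h1] at hk
  have pc : 0 < c := Nat.card_pos
  have pd : 0 < d := Nat.pos_of_ne_zero Subgroup.index_ne_zero_of_finite
  have h3 : 2 * (s * s) ≤ d := hidx.trans hle
  have h4 : (s * (d * c)) ^ 2 = (s * s) * (d ^ 2 * c ^ 2) := by ring
  have h5 : d ^ 3 * c ^ 2 = d * (d ^ 2 * c ^ 2) := by ring
  rw [h4, h5] at hk
  have h6 : d < s * s := lt_of_mul_lt_mul_right hk (Nat.zero_le _)
  omega

theorem gd_of_epropA [Finite G] {S Z : Subgroup G} (hS : IsPGroup 2 S)
    (hn : ∀ t ∈ S, ∀ v ∈ Z, t * v * t⁻¹ ∈ Z) (hZ : IsElementaryAbelian 2 Z)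
    (h : EPropA S Z) : Gd G S Z := by
  have hexpZ : ∀ z ∈ Z, z * z = 1 := fun z hz => by
    rw [← sq]
    exact isElementaryAbelian_pow hZ hz
  obtain ⟨V, I, φ, j, hj, hr, hexp, he⟩ := S4ConInst.exists_rep Z hexpZ S.subtype
    (fun x y hy => hn x x.2 y hy)
  have : Finite V := Finite.of_injective j hj
  have hcn : ∀ s : S, (s : G) ∈ centralizer (Z : Set G) ↔ s ∈ cn φ ⊤ := by
    intro s
    rw [mem_centralizer_iff]
    constructor
    · intro h1 v _
      apply hj
      rw [he]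
      have h2 : j v ∈ Z := hr ▸ ⟨v, rfl⟩
      rw [show (S.subtype s) = (s : G) from rfl, ← h1 _ h2, mul_inv_cancel_right]
    · intro h1 z hz
      rw [SetLike.mem_coe, ← hr] at hz
      obtain ⟨v, rfl⟩ := hz
      have h2 := he s v
      rw [h1 v (mem_top v)] at h2
      exact eq_mul_inv_iff_mul_eq.1 h2
  have key : ∀ R : Subgroup S, (∀ a ∈ R, ∀ b ∈ R, ∀ v, φ a (φ b v) = φ b (φ a v)) →
      (∀ a ∈ R, ∀ v, φ a (φ a v) = v) → ¬ R ≤ cn φ ⊤ →
      ((cn φ ⊤).relIndex R) ^ 3 * (Nat.card (fx φ R)) ^ 2 < Nat.card V ^ 2 := by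
    intro R hR1 hR2 hR3
    have h1 := h (R.map S.subtype) (map_subtype_le R) (by
      rw [← map_commutator, map_le_iff_le_comap, commutator_le]
      intro a ha b hb
      rw [mem_comap]
      refine (hcn (a * b * a⁻¹ * b⁻¹)).2 ?_
      intro v _
      rw [map_mul, map_mul, map_mul, MulAut.mul_apply, MulAut.mul_apply,
        MulAut.mul_apply]
      rw [hR1 a ha b hb, apply_inv_cancel]
      exact apply_inv_cancel φ b v) (by
      rintro _ ⟨a, ha, rfl⟩
      rw [← map_pow]
      refine (hcn (a ^ 2)).2 ?_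
      intro v _
      rw [sq, map_mul, MulAut.mul_apply]
      exact hR2 a ha v) (by
      intro h2
      apply hR3
      intro a ha
      exact (hcn a).1 (h2 ⟨a, ha, rfl⟩))
    have e1 : Nat.card (R.map S.subtype) = Nat.card R := card_map_of_injective S.subtype_injective
    have e2 : R.map S.subtype ⊓ centralizer (Z : Set G) = (cn φ ⊤ ⊓ R).map S.subtype := by
      ext x
      constructor
      · rintro ⟨⟨r, hr', rfl⟩, h2⟩
        exact ⟨r, ⟨(hcn r).1 h2, hr'⟩, rfl⟩
      · rintro ⟨r, ⟨h2, hr'⟩, rfl⟩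
        exact ⟨⟨r, hr', rfl⟩, (hcn r).2 h2⟩
    have e3 : Z ⊓ centralizer ((R.map S.subtype : Subgroup G) : Set G) = (fx φ R).map j := by
      ext x
      constructor
      · rintro ⟨hx, hx'⟩
        rw [SetLike.mem_coe, ← hr] at hx
        obtain ⟨v, rfl⟩ := hx
        refine ⟨v, fun a ha => ?_, rfl⟩
        apply hj
        rw [he]
        have h2 := mem_centralizer_iff.1 hx' (a : G) ⟨a, ha, rfl⟩
        rw [show (S.subtype a) = (a : G) from rfl, h2, mul_inv_cancel_right]
      · rintro ⟨v, hv, rfl⟩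
        refine ⟨?_, ?_⟩
        · show j v ∈ Z
          rw [← hr]
          exact ⟨v, rfl⟩
        · show j v ∈ centralizer ((R.map S.subtype : Subgroup G) : Set G)
          rw [mem_centralizer_iff]
          rintro _ ⟨a, ha, rfl⟩
          have h2 := he a v
          rw [hv a ha] at h2
          exact (eq_mul_inv_iff_mul_eq.1 h2).symm
    have e4 : Nat.card Z = Nat.card V := by
      rw [← hr]
      exact (Nat.card_congr (MonoidHom.ofInjective hj).toEquiv).symm
    have e5 : (cn φ ⊤).relIndex R * Nat.card ↥(cn φ ⊤ ⊓ R) = Nat.card R := by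
      rw [← inf_relIndex_right]
      exact S4ConInst.relIndex_mul_card' inf_le_right
    rw [e1, e2, e3, e4, card_map_of_injective S.subtype_injective, card_map_of_injective hj,
      ← e5] at h1
    set r := (cn φ ⊤).relIndex R
    set c := Nat.card ↥(cn φ ⊤ ⊓ R) with hc
    set w := Nat.card (fx φ R)
    set z := Nat.card V
    have pc : 0 < c := Nat.card_pos
    have h2 : c ^ 3 * (r ^ 3 * w ^ 2) < c ^ 3 * z ^ 2 := by
      calc c ^ 3 * (r ^ 3 * w ^ 2) = (r * c) ^ 3 * w ^ 2 := by ring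
        _ < z ^ 2 * c ^ 3 := h1
        _ = c ^ 3 * z ^ 2 := by ring
    exact lt_of_mul_lt_mul_left h2 (Nat.zero_le _)
  refine ⟨V, I, φ, j, hj, hr, hexp, he, ?_, ?_⟩
  · refine ⟨fun _ _ _ _ => mem_top _, fun A _ hab hle => ?_⟩
    by_contra hne
    obtain ⟨A', hA'A, h1, -, h2, h3⟩ := exists_best (φ := φ) hexp (hS.to_subgroup A)
      (U := ⊤) (fun _ _ _ _ => mem_top _) hab hne hle
    have h4 : ∀ a ∈ A', ∀ v, φ a (φ a v) = v := by
      intro a ha v
      have h5 := h3 a ha a ha v (mem_top v)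
      rw [map_mul, map_inv] at h5
      have h6 : φ a (φ a v) = φ a v * v⁻¹ * φ a v := mul_inv_eq_iff_eq_mul.1 h5
      rw [h6, mul_right_comm, hexp, one_mul]
      exact inv_eq_of_mul_eq_one_left (hexp v)
    have h5 := key A' (fun a ha b hb v => hab a (hA'A ha) b (hA'A hb) v (mem_top v)) h4 h1
    have h6 := le_of_cube h5 (Nat.pos_of_ne_zero Subgroup.index_ne_zero_of_finite)
    unfold ms at h2
    rw [top_inf_eq, Subgroup.card_top] at h2
    omega
  · intro B _ E hF
    exact noflag_aux hexp key B E hF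

end Cfsg.Agent.H210.TwoFac
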