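import Mathlib
import Cfsg.Prelude.Def_Local
import Cfsg.Prelude.Def_LocalEven

/-!
# The composition factors of a quotient; iso-invariance
-/

set_option autoImplicit false

namespace Cfsg.Agent.H210.TwoFac

open Cfsg

universe u

theorem ckg_quotient {K : ∀ (X : Type u) [Group X], Prop}
    (hK : ∀ (X Y : Type u) [Group X] [Group Y], (X ≃* Y) → K X → K Y)
    {G : Type u} [Group G] (h : IsCompositionKGroupWith K G) (N : Subgroup G) [N.Normal] :
    IsCompositionKGroupWith K (G ⧸ N) := by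
  intro H hH M hM hs hc
  let π := QuotientGroup.mk' N
  let r : H.comap π →* H := (π.comp (H.comap π).subtype).codRestrict H fun x => x.2
  have hr : Function.Surjective r := by
    rintro ⟨y, hy⟩
    obtain ⟨x, rfl⟩ := QuotientGroup.mk'_surjective N y
    exact ⟨⟨x, hy⟩, rfl⟩
  let f : H.comap π →* H ⧸ M := (QuotientGroup.mk' M).comp r
  have hf : Function.Surjective f := (QuotientGroup.mk'_surjective M).comp hr
  let e : (H.comap π ⧸ f.ker) ≃* (H ⧸ M) := QuotientGroup.quotientKerEquivOfSurjective f hf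
  have : Nontrivial (H.comap π ⧸ f.ker) := e.toEquiv.nontrivial
  have : IsSimpleGroup (H.comap π ⧸ f.ker) :=
    IsSimpleGroup.isSimpleGroup_of_surjective (G := H ⧸ M) e.symm.toMonoidHom e.symm.surjective
  refine hK _ _ e (h (H.comap π) (hH.comap π) f.ker this ?_)
  intro hcomm
  apply hc
  refine ⟨⟨fun a b => ?_⟩⟩
  apply e.symm.injective
  rw [map_mul, map_mul]
  exact hcomm.is_comm.comm _ _

theorem suz_psl_equiv (X Y : Type u) [Group X] [Group Y] (e : X ≃* Y)
    (h : IsSuzukiOrPSL2OddPowerThree X) : IsSuzukiOrPSL2OddPowerThree Y := by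
  rcases h with h | ⟨F, i1, i2, n, hn, ⟨e'⟩⟩
  · left
    obtain ⟨F, i1, i2, n, h1, hn, ⟨e'⟩⟩ := h
    exact ⟨F, i1, i2, n, h1, hn, ⟨e.symm.trans e'⟩⟩
  · exact Or.inr ⟨F, i1, i2, n, hn, ⟨e.symm.trans e'⟩⟩

end Cfsg.Agent.H210.TwoFac
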