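import Mathlib
import Cfsg.Agent.H210.TwoFac.Good

/-!
# `G = C(Ω₁(Z(Ĵ(S)))) N(J_e(S))`
-/

set_option autoImplicit false

namespace Cfsg.Agent.H210.TwoFac

open Cfsg Subgroup
open Cfsg.Agent.PLocal
open Cfsg.Agent.PLocal.ThompsonJ Cfsg.Agent.PLocal.ElemAbSup
open Cfsg.Agent.PLocal.S4ConGroup (Df GdAx le_Df Df_le good_Df)
open Cfsg.Agent.PLocal.S4ConInst (Gd)
open Cfsg.Agent.PLocal.S4FreeSection (S4Free)

universe u v

variable {G : Type u} [Group G]

theorem isEGroup_iff (U : Subgroup G) : IsEGroup ↥U ↔ EGrp U := by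
  have h := isEGroup_iff_range (f := U.subtype) U.subtype_injective
  rwa [range_subtype] at h

theorem eGrp_map_iff {H : Type v} [Group H] {φ : G →* H} (hφ : Function.Injective φ)
    (U : Subgroup G) : EGrp (U.map φ) ↔ EGrp U := by
  rw [← isEGroup_iff U, isEGroup_iff_range (f := φ.comp U.subtype)
    (hφ.comp U.subtype_injective), MonoidHom.range_comp, range_subtype]

theorem jh_map {H : Type v} [Group H] {φ : G →* H} (hφ : Function.Injective φ)
    (S : Subgroup G) : jh (S.map φ) = (jh S).map φ := by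
  apply le_antisymm
  · refine sSup_le ?_
    rintro U ⟨hUS, hU, hJ⟩
    have h1 : (U.comap φ).map φ = U := map_comap_eq_self (hUS.trans (by
      rintro _ ⟨x, _, rfl⟩
      exact ⟨x, rfl⟩))
    rw [← h1]
    apply map_mono
    refine le_jh ?_ ?_ ?_
    · rw [← map_le_map_iff_of_injective hφ, h1]
      exact hUS
    · rw [← eGrp_map_iff hφ, h1]
      exact hU
    · rw [← map_le_map_iff_of_injective hφ, h1, ← thompsonSubgroupOf_map 2 hφ]
      exact hJ
  · rw [map_le_iff_le_comap]
    refine sSup_le ?_
    rintro U ⟨hUS, hU, hJ⟩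
    rw [← map_le_iff_le_comap]
    refine le_jh (map_mono hUS) ((eGrp_map_iff hφ U).2 hU) ?_
    rw [thompsonSubgroupOf_map 2 hφ]
    exact map_mono hJ

theorem normalizer_le_normalizer_jh (S : Subgroup G) :
    normalizer (S : Set G) ≤ normalizer (jh S : Set G) := by
  intro g hg
  have h1 : S.map (MulAut.conj g).toMonoidHom = S := mem_normalizer_iff_map_conj_eq.1 hg
  have h2 := jh_map (MulAut.conj g).injective (φ := (MulAut.conj g).toMonoidHom) S
  rw [h1] at h2
  exact mem_normalizer_iff_map_conj_eq.2 h2.symm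

theorem conj_mem_zz {H : Subgroup G} {g : G} (hg : g ∈ normalizer (H : Set G)) {x : G}
    (hx : x ∈ zz H) : g * x * g⁻¹ ∈ zz H := by
  obtain ⟨h1, h2, h3⟩ := mem_zz.1 hx
  rw [mem_normalizer_iff] at hg
  refine mem_zz.2 ⟨(hg x).1 h1, ?_, ?_⟩
  · rw [mem_centralizer_iff] at h2 ⊢
    intro y hy
    have h4 : g⁻¹ * y * g ∈ H := by
      rw [hg]
      have : g * (g⁻¹ * y * g) * g⁻¹ = y := by group
      rw [this]
      exact hy
    have h5 := h2 _ h4
    calc y * (g * x * g⁻¹) = g * ((g⁻¹ * y * g) * x) * g⁻¹ := by group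
      _ = g * (x * (g⁻¹ * y * g)) * g⁻¹ := by rw [h5]
      _ = g * x * g⁻¹ * y := by group
  · rw [conj_pow, h3, mul_one, mul_inv_cancel]

theorem part3 [Finite G] (hchar : centralizer (pCore 2 G : Set G) ≤ pCore 2 G)
    (h4 : S4Free G) (S : Sylow 2 G) (g : G) :
    ∃ c ∈ centralizer (zz (jh (S : Subgroup G)) : Set G),
      ∃ n ∈ normalizer ((thompsonSubgroupOf 2 (S : Subgroup G) : Subgroup G) : Set G),
        g = c * n := by
  set D := dd (S : Subgroup G) with hD
  have hDn : D.Normal := dd_normal h4 hchar S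
  have hDS : D ≤ (S : Subgroup G) := Df_le _
  have hDg : Gd G (S : Subgroup G) D := good_Df ax S.isPGroup'
  have hDe : IsElementaryAbelian 2 D := by
    have h1 := ax.exp G _ _ hDg
    rw [isElementaryAbelian_iff]
    exact ⟨S4ConGroup.comm_of_exp h1, fun a ha => by rw [sq]; exact h1 a ha⟩
  have hZD : zz (jh (S : Subgroup G)) ≤ D := by
    refine le_Df ((zz_le _).trans (jh_le _)) (gd_of_epropA S.isPGroup' ?_ (zz_ea _)
      (chain _ _ rfl).2.2)
    intro t ht v hv
    exact conj_mem_zz (normalizer_le_normalizer_jh _ (le_normalizer ht)) hv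
  have hJ := (jj_le_cen hDS hDe (by
    intro R hR hR2 hne
    rcases ax.unoff G _ _ hDg R hR (by
      intro a ha b hb
      rw [isElementaryAbelian_comm hR2 ha hb, mul_inv_cancel_right, mul_inv_cancel]
      exact one_mem _) with h | h
    · exact absurd h hne
    · have e1 : (centralizer (D : Set G)).relIndex R *
          Nat.card ↥(R ⊓ centralizer (D : Set G)) = Nat.card R := by
        rw [← inf_relIndex_left]
        exact S4ConInst.relIndex_mul_card' inf_le_left
      have e2 : (centralizer (R : Set G)).relIndex D *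
          Nat.card ↥(D ⊓ centralizer (R : Set G)) = Nat.card D := by
        rw [← inf_relIndex_left]
        exact S4ConInst.relIndex_mul_card' inf_le_left
      rw [← e1, ← e2]
      set a := Nat.card ↥(R ⊓ centralizer (D : Set G)) with ha
      set b := Nat.card ↥(D ⊓ centralizer (R : Set G)) with hb
      have pa : 0 < a := Nat.card_pos
      have pb : 0 < b := Nat.card_pos
      calc (centralizer (D : Set G)).relIndex R * a * b
          = (centralizer (D : Set G)).relIndex R * (a * b) := by ring
        _ < (centralizer (R : Set G)).relIndex D * (a * b) :=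
            Nat.mul_lt_mul_of_pos_right h (by positivity)
        _ = (centralizer (R : Set G)).relIndex D * b * a := by ring)).1
  have hJ' : thompsonSubgroupOf 2 (S : Subgroup G) ≤
      (S : Subgroup G) ⊓ centralizer (D : Set G) :=
    le_inf (thompsonSubgroupOf_le_self 2 _) hJ
  refine frattini S (centralizer (D : Set G)) _ ?_ _ (centralizer_le hZD) g
  rw [← jj_eq_of_le inf_le_left hJ']
  exact ThompsonFrattini.normalizer_le_normalizer_thompson 2 _

end Cfsg.Agent.H210.TwoFac
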