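import Mathlib
import Cfsg.Agent.H210.TwoFac.Part3
import Cfsg.Agent.H210.TwoFac.KGroup
import Cfsg.Agent.H210.Off.Dual

/-!
# The module `V = Ω₁⟨Z(S)^G⟩` has property E
-/

set_option autoImplicit false

namespace Cfsg.Agent.H210.TwoFac

open Cfsg Subgroup
open Cfsg.Agent.PLocal
open Cfsg.Agent.PLocal.ThompsonJ Cfsg.Agent.PLocal.ElemAbSup
open Cfsg.Agent.PLocal.S4FreeSection (S4Free)
open Cfsg.Agent.Lib

universe u v

variable {G : Type u} [Group G]

/-- an element of odd order centralizing `Ω₁(W)`, `W` an abelian 2-group, centralizes `W` -/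
theorem coprime_omega {W : Subgroup G} (hW : ∀ a ∈ W, ∀ b ∈ W, a * b = b * a) {x : G}
    (hx : Odd (orderOf x)) (hn : ∀ w ∈ W, x * w * x⁻¹ ∈ W)
    (hc : ∀ w ∈ W, w ^ 2 = 1 → x * w * x⁻¹ = w) :
    ∀ (k : ℕ) (w : G), w ∈ W → w ^ 2 ^ k = 1 → x * w * x⁻¹ = w := by
  intro k
  induction k with
  | zero =>
    intro w _ h
    rw [pow_zero, pow_one] at h
    rw [h, mul_one, mul_inv_cancel]
  | succ k ih =>
    intro w hw h
    have h1 := ih (w ^ 2) (pow_mem hw 2) (by rw [← pow_mul, ← pow_succ']; exact h)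
    obtain ⟨u, hu⟩ : ∃ u, u = x * w * x⁻¹ * w⁻¹ := ⟨_, rfl⟩
    have huW : u ∈ W := hu ▸ mul_mem (hn w hw) (inv_mem hw)
    have hu2 : u ^ 2 = 1 := by
      have hcm : Commute (x * w * x⁻¹) w⁻¹ := hW _ (hn w hw) _ (inv_mem hw)
      rw [hu, hcm.mul_pow, conj_pow, h1, inv_pow, mul_inv_cancel]
    have hxu : x * u * x⁻¹ = u := hc u huW hu2
    have hxw : x * w * x⁻¹ = u * w := by rw [hu, inv_mul_cancel_right]
    have hstep : ∀ n : ℕ, x ^ n * w * (x ^ n)⁻¹ = u ^ n * w := by
      intro n
      induction n with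
      | zero => simp
      | succ n ihn =>
        have h2 : x * u ^ n * x⁻¹ = u ^ n := by rw [← conj_pow, hxu]
        calc x ^ (n + 1) * w * (x ^ (n + 1))⁻¹ = x * (x ^ n * w * (x ^ n)⁻¹) * x⁻¹ := by
              rw [pow_succ']
              group
          _ = x * (u ^ n * w) * x⁻¹ := by rw [ihn]
          _ = (x * u ^ n * x⁻¹) * (x * w * x⁻¹) := by group
          _ = u ^ (n + 1) * w := by rw [h2, hxw, pow_succ, mul_assoc]
    have h2 := hstep (orderOf x)
    rw [pow_orderOf_eq_one, one_mul, inv_one, mul_one] at h2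
    have h3 : u ^ orderOf x = 1 := by
      have : u ^ orderOf x * w = 1 * w := by rw [← h2, one_mul]
      exact mul_right_cancel this
    have h4 : u = 1 := by
      obtain ⟨m, hm⟩ := hx
      rw [hm, pow_succ, pow_mul, hu2, one_pow, one_mul] at h3
      exact h3
    rw [hxw, h4, one_mul]

/-- A normal subgroup whose elements of odd order centralize `W = ⟨Z^G⟩`, `Z` central in a Sylow
2-subgroup, centralizes `W`. -/
theorem le_cen_of_odd [Finite G] (S : Sylow 2 G) {Z P : Subgroup G} (hP : P.Normal)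
    (hZ : (S : Subgroup G) ≤ centralizer (Z : Set G))
    (h : ∀ x ∈ P, Odd (orderOf x) → x ∈ centralizer ((normalClosure (Z : Set G) : Subgroup G) : Set G)) :
    P ≤ centralizer ((normalClosure (Z : Set G) : Subgroup G) : Set G) := by
  have : Fact (Nat.Prime 2) := ⟨Nat.prime_two⟩
  set W := normalClosure (Z : Set G) with hW
  have hWn : W.Normal := normalClosure_normal
  have hcW : (centralizer (W : Set G)).Normal := inferInstance
  have hWZ : centralizer (W : Set G) ≤ centralizer (Z : Set G) :=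
    centralizer_le subset_normalClosure
  obtain ⟨T, hT⟩ := ThompsonFrattini.exists_sylow_subgroupOf S P
  set X := (centralizer (Z : Set G)).subgroupOf P with hX
  have hTX : (T : Subgroup P) ≤ X := by
    rw [hT]
    exact comap_mono hZ
  set N := (centralizer (W : Set G)).subgroupOf P with hN
  have hNn : N.Normal := hcW.subgroupOf P
  have hNX : N ≤ X := comap_mono hWZ
  have hq : IsPGroup 2 (P ⧸ N) := by
    intro q
    obtain ⟨x, rfl⟩ := QuotientGroup.mk_surjective q
    obtain ⟨k, r, hr, hkr⟩ := Nat.exists_eq_two_pow_mul_odd (n := orderOf (x : G))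
      (orderOf_pos (x : G)).ne'
    refine ⟨k, ?_⟩
    rw [← QuotientGroup.mk_pow, QuotientGroup.eq_one_iff, hN, mem_subgroupOf]
    apply h
    · exact (x ^ 2 ^ k).2
    · have h1 : orderOf (((x ^ 2 ^ k : P) : G)) = r := by
        rw [Subgroup.coe_pow, orderOf_pow, hkr, Nat.gcd_eq_right (dvd_mul_right _ _),
          Nat.mul_div_cancel_left _ (pow_pos (by norm_num) k)]
      rw [h1]
      exact hr
  obtain ⟨m, hm⟩ := hq.exists_card_eq
  have h1 : X.index ∣ 2 ^ m := by
    rw [← hm]
    exact index_dvd_of_le hNX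
  have h2 : ¬ 2 ∣ X.index := fun h2 => T.not_dvd_index (h2.trans (index_dvd_of_le hTX))
  have h3 : X.index = 1 := by
    obtain ⟨k, -, hk⟩ := (Nat.dvd_prime_pow Nat.prime_two).1 h1
    rcases Nat.eq_zero_or_pos k with rfl | hk0
    · rw [hk, pow_zero]
    · exact absurd (hk ▸ dvd_pow_self 2 hk0.ne') h2
  have h4 : P ≤ centralizer (Z : Set G) := by
    rw [index_eq_one] at h3
    exact subgroupOf_eq_top.1 h3
  have h5 : Z ≤ centralizer (P : Set G) := by
    intro z hz
    rw [mem_centralizer_iff]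
    intro p hp
    exact (mem_centralizer_iff.1 (h4 hp) z hz).symm
  have h6 : W ≤ centralizer (P : Set G) := normalClosure_le_normal h5
  intro p hp
  rw [mem_centralizer_iff]
  intro w hw
  exact (mem_centralizer_iff.1 (h6 hw) p hp).symm

theorem exists_module [Finite G] (hchar : centralizer (pCore 2 G : Set G) ≤ pCore 2 G)
    (h4 : S4Free G) (hK : IsCompositionKGroupWith IsSuzukiOrPSL2OddPowerThree G)
    (S : Sylow 2 G) :
    ∃ V : Subgroup G, V.Normal ∧ V ≤ (S : Subgroup G) ∧ IsElementaryAbelian 2 V ∧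
      centralizer (V : Set G) ≤
        centralizer (((S : Subgroup G) ⊓ centralizer ((S : Subgroup G) : Set G) : Subgroup G) :
          Set G) ∧ EProp ⊤ V := by
  set Z := (S : Subgroup G) ⊓ centralizer ((S : Subgroup G) : Set G) with hZ
  set Q := pCore 2 G with hQ
  have hQn : Q.Normal := Cores.pCore_normal 2
  have hQS : Q ≤ (S : Subgroup G) := Cores.pCore_le_sylow S
  have hSZ : (S : Subgroup G) ≤ centralizer (Z : Set G) := by
    intro s hs
    rw [mem_centralizer_iff]
    intro z hz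
    exact (mem_centralizer_iff.1 hz.2 s hs).symm
  have hZQ : Z ≤ Q ⊓ centralizer (Q : Set G) := by
    have h1 : Z ≤ centralizer (Q : Set G) := inf_le_right.trans (centralizer_le hQS)
    exact le_inf (h1.trans hchar) h1
  set W := normalClosure (Z : Set G) with hW
  have hWn : W.Normal := normalClosure_normal
  have hWQ : W ≤ Q ⊓ centralizer (Q : Set G) := normalClosure_le_normal hZQ
  have hWc : ∀ a ∈ W, ∀ b ∈ W, a * b = b * a := fun a ha b hb =>
    mem_centralizer_iff.1 (hWQ hb).2 a (hWQ ha).1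
  let V : Subgroup G :=
    { carrier := {x | x ∈ W ∧ x ^ 2 = 1}
      one_mem' := ⟨one_mem _, one_pow _⟩
      mul_mem' := by
        rintro a b ⟨ha, ha2⟩ ⟨hb, hb2⟩
        refine ⟨mul_mem ha hb, ?_⟩
        have h1 : Commute a b := hWc a ha b hb
        rw [h1.mul_pow, ha2, hb2, one_mul]
      inv_mem' := by
        rintro a ⟨ha, ha2⟩
        exact ⟨inv_mem ha, by rw [inv_pow, ha2, inv_one]⟩ }
  have hmemV : ∀ x, x ∈ V ↔ x ∈ W ∧ x ^ 2 = 1 := fun _ => Iff.rfl
  have hVn : V.Normal := ⟨fun x hx g => ⟨hWn.conj_mem x hx.1 g, by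
    rw [conj_pow, hx.2, mul_one, mul_inv_cancel]⟩⟩
  have hVS : V ≤ (S : Subgroup G) := fun x hx => hQS (hWQ hx.1).1
  have hVe : IsElementaryAbelian 2 V := by
    rw [isElementaryAbelian_iff]
    exact ⟨fun a ha b hb => hWc a ha.1 b hb.1, fun a ha => ha.2⟩
  have hodd : ∀ x ∈ centralizer (V : Set G), Odd (orderOf x) → x ∈ centralizer (W : Set G) := by
    intro x hx hxo
    rw [mem_centralizer_iff]
    intro w hw
    obtain ⟨k, hk⟩ := Cores.pCore_isPGroup (G := G) 2 ⟨w, (hWQ hw).1⟩
    have hk' : w ^ 2 ^ k = 1 := congrArg Subtype.val hk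
    have h1 := coprime_omega hWc hxo (fun w hw => hWn.conj_mem w hw x) (by
      intro w hw hw2
      have h2 := mem_centralizer_iff.1 hx w ⟨hw, hw2⟩
      rw [← h2, mul_inv_cancel_right]) k w hw hk'
    exact (mul_inv_eq_iff_eq_mul.1 h1).symm
  have hcVn : (centralizer (V : Set G)).Normal := inferInstance
  have hVW : centralizer (V : Set G) ≤ centralizer (W : Set G) :=
    le_cen_of_odd S hcVn hSZ hodd
  have hWV : centralizer (W : Set G) ≤ centralizer (V : Set G) :=
    centralizer_le fun x hx => hx.1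
  refine ⟨V, hVn, hVS, hVe, hVW.trans (centralizer_le subset_normalClosure), ?_⟩
  -- the faithful representation
  obtain ⟨V₁, I, φ, j, hj, hr, hexp, he⟩ := S4ConInst.exists_rep V (fun y hy => by
    rw [← sq]; exact hy.2) (MonoidHom.id G) (fun x y hy => hVn.conj_mem y hy x)
  have he' : ∀ (x : G) (v : V₁), j (φ x v) = x * j v * x⁻¹ := he
  have hfin : Finite V₁ := Finite.of_injective j hj
  have hker : ∀ g : G, g ∈ φ.ker ↔ g ∈ centralizer (V : Set G) := by
    intro g
    rw [MonoidHom.mem_ker, mem_centralizer_iff]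
    constructor
    · intro h v hv
      rw [SetLike.mem_coe, ← hr] at hv
      obtain ⟨v, rfl⟩ := hv
      have h2 := he' g v
      rw [h, MulAut.one_apply] at h2
      exact eq_mul_inv_iff_mul_eq.1 h2
    · intro h
      ext v
      apply hj
      rw [he', MulAut.one_apply]
      have h2 : j v ∈ V := hr ▸ ⟨v, rfl⟩
      rw [← h _ h2, mul_inv_cancel_right]
  have hkereq : φ.ker = centralizer (V : Set G) := Subgroup.ext hker
  let π := QuotientGroup.mk' φ.ker
  let ρ : G ⧸ φ.ker →* MulAut V₁ := QuotientGroup.kerLift φ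
  have hρ : Function.Injective ρ := QuotientGroup.kerLift_injective φ
  have hρπ : ∀ g, ρ (π g) = φ g := fun _ => rfl
  have hO : pCore 2 (G ⧸ φ.ker) = ⊥ := by
    have h1 : (pCore 2 (G ⧸ φ.ker)).comap π ≤ centralizer (W : Set G) := by
      refine le_cen_of_odd S ((Cores.pCore_normal 2).comap π) hSZ ?_
      intro x hx hxo
      refine hodd x ?_ hxo
      rw [← hker, ← QuotientGroup.eq_one_iff]
      obtain ⟨k, hk⟩ := Cores.pCore_isPGroup (G := G ⧸ φ.ker) 2 ⟨π x, hx⟩
      have hk' : (π x) ^ 2 ^ k = 1 := congrArg Subtype.val hk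
      have h2 : orderOf (π x) ∣ orderOf x := orderOf_map_dvd π x
      have h3 : orderOf (π x) ∣ 2 ^ k := orderOf_dvd_of_pow_eq_one hk'
      have h4 : Nat.Coprime (orderOf x) (2 ^ k) := (Nat.coprime_two_right.2 hxo).pow_right k
      exact orderOf_eq_one_iff.1 (Nat.eq_one_of_dvd_coprimes h4 h2 h3)
    rw [eq_bot_iff]
    intro q hq
    obtain ⟨x, rfl⟩ := QuotientGroup.mk'_surjective φ.ker q
    have h2 : x ∈ centralizer (V : Set G) := hWV (h1 hq)
    rw [mem_bot, QuotientGroup.mk'_apply, QuotientGroup.eq_one_iff, hker]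
    exact h2
  have hS3 : SFourOffender.NoS3 φ := by
    let e₀ : V₁ ≃* j.range := MonoidHom.ofInjective hj
    let ε : V ≃* V₁ := (MulEquiv.subgroupCongr hr.symm).trans e₀.symm
    have hjε : ∀ v : V, j (ε v) = v := by
      intro v
      have h1 : e₀ (ε v) = (MulEquiv.subgroupCongr hr.symm) v := e₀.apply_symm_apply _
      exact congrArg Subtype.val h1
    refine S4FreeNoS3.noS3_of_section h4 hVn hexp ε.toMonoidHom ε.surjective φ ?_
    intro g a
    apply hj
    show j (ε _) = j (φ g (ε a))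
    rw [hjε, he', hjε]
  have h3 : Off.NoInv3 (G ⧸ φ.ker) := by
    apply Off.noInv3_of
    rintro ⟨K, R, hR, ⟨e⟩⟩
    apply hS3
    let r : K.comap π →* K := (π.comp (K.comap π).subtype).codRestrict K fun x => x.2
    have hr' : Function.Surjective r := by
      rintro ⟨y, hy⟩
      obtain ⟨x, rfl⟩ := QuotientGroup.mk'_surjective φ.ker y
      exact ⟨⟨x, hy⟩, rfl⟩
    refine ⟨K.comap π, (e.toMonoidHom.comp (QuotientGroup.mk' (R.subgroupOf K))).comp r,
      (e.surjective.comp (QuotientGroup.mk'_surjective _)).comp hr', ?_⟩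
    intro d hd
    have h1 : r d = 1 := by
      apply Subtype.ext
      show π (d : G) = 1
      rw [QuotientGroup.mk'_apply, QuotientGroup.eq_one_iff]
      exact hd
    rw [MonoidHom.comp_apply, h1, map_one]
  have hKq : IsCompositionKGroupWith IsSuzukiOrPSL2OddPowerThree (G ⧸ φ.ker) :=
    ckg_quotient suz_psl_equiv hK φ.ker
  intro R _ _ hR2 hne
  have hA2 : ∀ a ∈ R.map π, a * a = 1 := by
    rintro _ ⟨r, hr', rfl⟩
    rw [← map_mul, ← sq]
    exact (QuotientGroup.eq_one_iff _).2 ((hker _).2 (hR2 r hr'))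
  have m1 := Off.main hρ hexp hO h3 hKq _ (R.map π) rfl hA2
  have m2 := Off.main_comm hρ hexp hO h3 hKq (R.map π) hA2 (⁅V, R⁆.comap j) (by
    rintro _ ⟨r, hr', rfl⟩ v
    rw [mem_comap, hρπ, map_mul, map_inv, he', commutator_comm]
    exact commutator_mem_commutator hr' (hr ▸ ⟨v, rfl⟩))
  -- orders
  have e1 : Nat.card (R.map π) * Nat.card ↥(R ⊓ centralizer (V : Set G)) = Nat.card R := by
    have h5 := Subgroup.relIndex_ker (f := π) (K := R)
    rw [QuotientGroup.ker_mk'] at h5
    have h6 : (centralizer (V : Set G)).relIndex R = φ.ker.relIndex R := by rw [hkereq]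
    rw [← h5, ← h6, ← inf_relIndex_left]
    exact S4ConInst.relIndex_mul_card' inf_le_left
  have e2 : V ⊓ centralizer (R : Set G) = (Cfsg.Agent.OddCyclic.T1Module.CS ρ (R.map π)).map j := by
    ext x
    constructor
    · rintro ⟨hx, hx'⟩
      rw [SetLike.mem_coe, ← hr] at hx
      obtain ⟨v, rfl⟩ := hx
      refine ⟨v, ?_, rfl⟩
      rintro _ ⟨a, ha, rfl⟩
      apply hj
      rw [hρπ, he']
      have h2 := mem_centralizer_iff.1 hx' (a : G) ha
      rw [h2, mul_inv_cancel_right]
    · rintro ⟨v, hv, rfl⟩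
      refine ⟨?_, ?_⟩
      · show j v ∈ V
        rw [← hr]
        exact ⟨v, rfl⟩
      · show j v ∈ centralizer (R : Set G)
        rw [mem_centralizer_iff]
        intro a ha
        have h2 := he' a v
        have h3 : ρ (π a) v = v := hv _ ⟨a, ha, rfl⟩
        rw [← hρπ, h3] at h2
        exact (eq_mul_inv_iff_mul_eq.1 h2).symm
  have e3 : Nat.card V = Nat.card V₁ := by
    rw [← hr]
    exact (Nat.card_congr (MonoidHom.ofInjective hj).toEquiv).symm
  have e4 := (Cfsg.Agent.OddCyclic.T1Module.CS ρ (R.map π)).index_mul_card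
  have e5 : Nat.card ↥(⁅V, R⁆.comap j) ≤ Nat.card ↥⁅V, R⁆ := by
    rw [← card_map_of_injective hj]
    exact Subgroup.card_le_of_le (map_comap_le j _)
  rw [e2, card_map_of_injective hj, ← e1, e3, ← e4]
  have hA1 : 2 ≤ Nat.card (R.map π) := by
    by_contra hlt
    have h5 : Nat.card (R.map π) = 1 := by
      have : 0 < Nat.card (R.map π) := Nat.card_pos
      omega
    apply hne
    intro r hr'
    rw [← hker, ← QuotientGroup.eq_one_iff]
    have h6 : R.map π = ⊥ := Subgroup.card_eq_one.1 h5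
    have h7 : π r ∈ R.map π := ⟨r, hr', rfl⟩
    rw [h6, mem_bot] at h7
    exact h7
  have m2' := m2.trans e5
  set a := Nat.card (R.map π) with ha
  set c := Nat.card ↥(R ⊓ centralizer (V : Set G)) with hc
  set i := (Cfsg.Agent.OddCyclic.T1Module.CS ρ (R.map π)).index with hi
  set f := Nat.card (Cfsg.Agent.OddCyclic.T1Module.CS ρ (R.map π)) with hf
  set w := Nat.card ↥⁅V, R⁆ with hw
  have pc : 0 < c := Nat.card_pos
  have pf : 0 < f := Nat.card_pos
  constructor
  · have h5 : (a * c) ^ 3 * f ^ 2 = a ^ 3 * (c ^ 3 * f ^ 2) := by ring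
    have h6 : (i * f) ^ 2 * c ^ 3 = i ^ 2 * (c ^ 3 * f ^ 2) := by ring
    rw [h5, h6, gt_iff_lt]
    refine Nat.mul_lt_mul_of_pos_right ?_ (by positivity)
    calc a ^ 3 < a ^ 4 := Nat.pow_lt_pow_right (by omega) (by norm_num)
      _ = (a ^ 2) ^ 2 := by ring
      _ ≤ i ^ 2 := Nat.pow_le_pow_left m1 2
  · show a * c < w * c
    refine Nat.mul_lt_mul_of_pos_right ?_ pc
    calc a < a ^ 2 := by
          rw [sq]
          exact lt_mul_of_one_lt_left (by omega) (by omega)
      _ ≤ w := m2'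

end Cfsg.Agent.H210.TwoFac
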